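import Cfsg.Agent.SL2.Sylow

/-!
# The quaternion subgroup of `SL(2, 3)`
-/

set_option autoImplicit false

namespace CfsgLib.SL2Three

open Matrix

/-- Elements of order dividing eight: there are only eight of them. -/
theorem card_pow_eight :
    (Finset.univ.filter fun g : Matrix.SpecialLinearGroup (Fin 2) (ZMod 3) =>
      ((g * g) * (g * g)) * ((g * g) * (g * g)) = 1).card = 8 := by
  decide +kernel

theorem exists_quaternion_three :
    ∃ Q : Subgroup (Matrix.SpecialLinearGroup (Fin 2) (ZMod 3)), Q.Normal ∧ Q.index = 3 ∧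
      Nonempty (Q ≃* QuaternionGroup 2) := by
  classical
  haveI : Fact (Nat.Prime 2) := ⟨Nat.prime_two⟩
  haveI : Fact (Nat.Prime 3) := ⟨Nat.prime_three⟩
  obtain ⟨P⟩ : Nonempty (Sylow 2 (Matrix.SpecialLinearGroup (Fin 2) (ZMod 3))) := inferInstance
  have hG : Nat.card (Matrix.SpecialLinearGroup (Fin 2) (ZMod 3)) = 24 := by
    rw [CfsgLib.SL2.card_SL, ZMod.card]
    rfl
  have hP : Nat.card P = 8 := by
    rw [P.card_eq_multiplicity, hG]
    have : (24 : ℕ).factorization 2 = 3 := by
      rw [show (24 : ℕ) = 2 ^ 3 * 3 by norm_num, Nat.factorization_mul (by norm_num) (by norm_num),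
        Finsupp.add_apply, Nat.Prime.factorization_pow Nat.prime_two, Finsupp.single_eq_same,
        Nat.Prime.factorization Nat.prime_three, Finsupp.single_eq_of_ne (by norm_num), add_zero]
    rw [this]
    norm_num
  set S := Finset.univ.filter fun g : Matrix.SpecialLinearGroup (Fin 2) (ZMod 3) =>
      ((g * g) * (g * g)) * ((g * g) * (g * g)) = 1 with hS
  have hsub : (Finset.univ.filter fun g => g ∈ P) ⊆ S := by
    intro g hg
    rw [Finset.mem_filter] at hg
    have h : (⟨g, hg.2⟩ : P) ^ 8 = 1 := by rw [← hP]; exact pow_card_eq_one'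
    have h' : g ^ 8 = 1 := congrArg Subtype.val h
    rw [hS, Finset.mem_filter]
    refine ⟨Finset.mem_univ _, ?_⟩
    simpa [pow_succ, mul_assoc] using h'
  have heq : (Finset.univ.filter fun g => g ∈ P) = S := by
    refine Finset.eq_of_subset_of_card_le hsub (le_of_eq ?_)
    rw [hS, card_pow_eight, ← hP, Nat.card_eq_fintype_card, Fintype.card_subtype]
    exact congrArg Finset.card (Finset.filter_congr fun _ _ => Iff.rfl)
  have hmem : ∀ g, g ∈ P ↔ g ^ 8 = 1 := by
    intro g
    have := Finset.ext_iff.1 heq g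
    rw [Finset.mem_filter, hS, Finset.mem_filter] at this
    simp only [Finset.mem_univ, true_and] at this
    rw [this]
    simp [pow_succ, mul_assoc]
  have hnormal : (P : Subgroup (Matrix.SpecialLinearGroup (Fin 2) (ZMod 3))).Normal := by
    refine ⟨fun g hg h => ?_⟩
    show h * g * h⁻¹ ∈ P
    have hg' : g ^ 8 = 1 := (hmem g).1 hg
    rw [hmem, conj_pow, hg', mul_one, mul_inv_cancel]
  obtain ⟨k, -, ⟨e⟩⟩ := CfsgLib.SL2.sylow_two_quaternion (F := ZMod 3) (by decide +revert) P
  have hk : 2 ^ k = 2 := by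
    have := Nat.card_congr e.toEquiv
    rw [hP, Nat.card_eq_fintype_card, QuaternionGroup.card] at this
    omega
  obtain rfl : k = 1 := Nat.pow_right_injective le_rfl (hk.trans (pow_one 2).symm)
  refine ⟨P, hnormal, ?_, ⟨e⟩⟩
  have := (P : Subgroup (Matrix.SpecialLinearGroup (Fin 2) (ZMod 3))).card_mul_index
  rw [hG, hP] at this
  omega

/-- Transport along an isomorphism of fields. -/
def slEquiv {R S : Type*} [CommRing R] [CommRing S] (e : R ≃+* S) :
    Matrix.SpecialLinearGroup (Fin 2) R ≃* Matrix.SpecialLinearGroup (Fin 2) S where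
  toFun := Matrix.SpecialLinearGroup.map e.toRingHom
  invFun := Matrix.SpecialLinearGroup.map e.symm.toRingHom
  left_inv g := Subtype.ext (Matrix.ext fun i j => e.symm_apply_apply (g.1 i j))
  right_inv g := Subtype.ext (Matrix.ext fun i j => e.apply_symm_apply (g.1 i j))
  map_mul' := map_mul _

theorem sl_two_three {F : Type*} [Field F] [Fintype F] (hF : Fintype.card F = 3) :
    (∃ Q : Subgroup (Matrix.SpecialLinearGroup (Fin 2) F), Q.Normal ∧ Q.index = 3 ∧
      Nonempty (Q ≃* QuaternionGroup 2)) ∧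
    Nat.card (Subgroup.center (Matrix.SpecialLinearGroup (Fin 2) F)) = 2 := by
  classical
  haveI : Fact (Nat.Prime 3) := ⟨Nat.prime_three⟩
  refine ⟨?_, CfsgLib.SL2.card_center_odd (CfsgLib.SL2.two_ne_zero_iff_odd.2 (by rw [hF]; decide))⟩
  obtain ⟨Q, hN, hi, ⟨e⟩⟩ := exists_quaternion_three
  obtain ⟨φ⟩ : Nonempty (Matrix.SpecialLinearGroup (Fin 2) (ZMod 3) ≃*
      Matrix.SpecialLinearGroup (Fin 2) F) :=
    ⟨slEquiv (FiniteField.ringEquivOfCardEq (by rw [hF, ZMod.card]))⟩
  refine ⟨Q.map φ.toMonoidHom, hN.map _ φ.surjective, ?_, ⟨(φ.subgroupMap Q).symm.trans e⟩⟩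
  exact (Subgroup.index_map_of_bijective (f := φ.toMonoidHom) φ.bijective Q).trans hi

end CfsgLib.SL2Three
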