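import Cfsg.Agent.SL2.Klein

/-!
# Subgroups of order four of `SL₂(q)`, `q` odd
-/

set_option autoImplicit false

namespace CfsgLib.SL2

variable {F : Type*} [Field F]

local notation "SL₂" F => Matrix.SpecialLinearGroup (Fin 2) F

/-- A subgroup of order four is generated by an element of trace zero. -/
lemma exists_gen_of_card_four [Fintype F] (h2 : (2 : F) ≠ 0) {A : Subgroup (SL₂ F)}
    (hA : Nat.card A = 4) : ∃ x : SL₂ F, tr x = 0 ∧ A = Subgroup.zpowers x := by
  have hdvd : ∀ y : A, orderOf y ∣ 4 := fun y => hA ▸ orderOf_dvd_natCard y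
  by_cases h : ∃ y : A, orderOf y = 4
  · obtain ⟨⟨x, hx⟩, hy⟩ := h
    rw [Subgroup.orderOf_mk] at hy
    have hx2 : orderOf (x ^ 2) = 2 := by
      rw [orderOf_pow' x two_ne_zero, hy]; rfl
    have hsq : x * x = -1 := by rw [← pow_two]; exact (orderOf_eq_two_iff h2).1 hx2
    refine ⟨x, mul_self_eq_neg_one_iff.1 hsq, ?_⟩
    symm
    refine Subgroup.eq_of_le_of_card_ge (by rwa [Subgroup.zpowers_le]) ?_
    rw [Nat.card_zpowers, hy, hA]
  · exfalso
    push Not at h
    have hle : Nat.card A ≤ Nat.card ({1, -1} : Set (SL₂ F)) := by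
      refine Nat.card_le_card_of_injective (fun y : A => ⟨(y : SL₂ F), ?_⟩)
        (fun y z e => Subtype.ext (congrArg Subtype.val e :))
      by_cases h1 : (y : SL₂ F) = 1
      · exact Or.inl h1
      · right
        have ho := hdvd y
        have : orderOf y = 2 := by
          have hmem : orderOf y ∈ Nat.divisors 4 := Nat.mem_divisors.2 ⟨ho, by norm_num⟩
          rw [show Nat.divisors 4 = {1, 2, 4} by decide] at hmem
          simp only [Finset.mem_insert, Finset.mem_singleton] at hmem
          rcases hmem with e | e | e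
          · exact absurd (congrArg Subtype.val (orderOf_eq_one_iff.1 e)) h1
          · exact e
          · exact absurd e (h y)
        exact (orderOf_eq_two_iff h2).1 (by rw [Subgroup.orderOf_coe]; exact this)
    rw [hA, Nat.card_coe_set_eq] at hle
    have := Set.ncard_insert_le (1 : SL₂ F) {-1}
    rw [Set.ncard_singleton] at this
    omega

lemma mem_normalizer_zpowers_tr_zero [Fintype F] (h2 : (2 : F) ≠ 0) {x : SL₂ F} (hx : tr x = 0)
    (h : SL₂ F) :
    h ∈ Subgroup.normalizer ((Subgroup.zpowers x : Subgroup (SL₂ F)) : Set (SL₂ F)) ↔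
      h ∈ Subgroup.normalizer
        ((Subgroup.centralizer ({x} : Set (SL₂ F)) : Subgroup (SL₂ F)) : Set (SL₂ F)) := by
  have hxt := tr_zero_sq_ne_four h2 hx
  rw [mem_normalizer_torus_iff hxt]
  have hxx : x * x = -1 := mul_self_of_tr_eq_zero hx
  constructor
  · intro hh
    obtain ⟨j, hj : x ^ j = h * x * h⁻¹⟩ :=
      Subgroup.mem_zpowers_iff.1 ((Subgroup.mem_normalizer_iff.1 hh x).1 (Subgroup.mem_zpowers x))
    have ht : tr (x ^ j) = 0 := by rw [hj, tr_conj, hx]
    obtain ⟨i, hi | hi⟩ := Int.even_or_odd' j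
    · exfalso
      rw [hi, zpow_mul, zpow_two, hxx] at ht
      rcases Int.even_or_odd i with hi2 | hi2
      · rw [hi2.neg_one_zpow, tr_one] at ht
        exact h2 ht
      · rw [hi2.neg_one_zpow, tr_neg, tr_one, neg_eq_zero] at ht
        exact h2 ht
    · rw [hi, zpow_add, zpow_mul, zpow_two, hxx, zpow_one] at hj
      rcases Int.even_or_odd i with hi2 | hi2
      · left; rw [← hj, hi2.neg_one_zpow, one_mul]
      · right; rw [← hj, hi2.neg_one_zpow, neg_one_mul, inv_of_tr_zero hx]
  · intro hh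
    have hmap : (Subgroup.zpowers x).map (MulAut.conj h).toMonoidHom = Subgroup.zpowers x := by
      rw [MonoidHom.map_zpowers]
      show Subgroup.zpowers (h * x * h⁻¹) = _
      rcases hh with e | e <;> rw [e]
      exact Subgroup.zpowers_inv
    refine Subgroup.mem_normalizer_iff.2 fun k => ?_
    nth_rw 2 [← hmap]
    constructor
    · intro hk; exact ⟨k, hk, rfl⟩
    · rintro ⟨k', hk', e⟩
      rwa [← (MulAut.conj h).injective e]

/-- Subgroups of order four: conjugacy and normalisers. -/
lemma order_four [Fintype F] (hodd : Odd (Fintype.card F)) (A : Subgroup (SL₂ F))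
    (hA : Nat.card A = 4) :
    (∀ B : Subgroup (SL₂ F), Nat.card B = 4 →
        ∃ g : SL₂ F, B = A.map (MulAut.conj g).toMonoidHom) ∧
      (Fintype.card F % 4 = 1 → Nat.card (Subgroup.normalizer (A : Set (SL₂ F))) =
        2 * (Fintype.card F - 1)) ∧
      (Fintype.card F % 4 = 3 → Nat.card (Subgroup.normalizer (A : Set (SL₂ F))) =
        2 * (Fintype.card F + 1)) := by
  have h2 := two_ne_zero_iff_odd.2 hodd
  obtain ⟨x, hx, rfl⟩ := exists_gen_of_card_four h2 hA
  have hxt := tr_zero_sq_ne_four h2 hx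
  refine ⟨fun B hB => ?_, ?_⟩
  · obtain ⟨y, hy, rfl⟩ := exists_gen_of_card_four h2 hB
    obtain ⟨g, hg⟩ := isConj_iff.1 (isConj_of_tr_eq hxt (hx.trans hy.symm))
    refine ⟨g, ?_⟩
    rw [MonoidHom.map_zpowers, ← hg]
    rfl
  · have e : Subgroup.normalizer ((Subgroup.zpowers x : Subgroup (SL₂ F)) : Set (SL₂ F)) =
        Subgroup.normalizer
          ((Subgroup.centralizer ({x} : Set (SL₂ F)) : Subgroup (SL₂ F)) : Set (SL₂ F)) :=
      Subgroup.ext (mem_normalizer_zpowers_tr_zero h2 hx)
    obtain ⟨e1, e3⟩ := card_centralizer_tr_zero h2 hx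
    constructor <;> intro h <;> rw [e, card_normalizer_torus hxt]
    · rw [e1 h]
    · rw [e3 h]

end CfsgLib.SL2
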