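import Cfsg.Agent.SL2.Torus

/-!
Class number of a dicyclic group, and the nonsplit tori of `SL₂` form one class.
-/

set_option autoImplicit false

namespace CfsgLib.SL2

/-- A group with an abelian subgroup `C` of index two, inverted by the outer elements, in which
`x * x = 1` has exactly two solutions in `C`, has `|C|/2 + 3` classes. -/
lemma card_conjClasses_of_inverting {G : Type*} [Group G] [Finite G] (C : Subgroup G)
    (hidx : C.index = 2) (hab : ∀ x ∈ C, ∀ y ∈ C, x * y = y * x)
    (hinv : ∀ h, h ∉ C → ∀ x ∈ C, h * x * h⁻¹ = x⁻¹)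
    (hinvol : Nat.card {x : G // x ∈ C ∧ x * x = 1} = 2) :
    2 * Nat.card (ConjClasses G) = Nat.card C + 6 := by
  classical
  have := Fintype.ofFinite G
  set n := Nat.card C with hn
  have hG : Nat.card G = 2 * n := by rw [← C.card_mul_index, hidx, mul_comm]
  set S : Finset G := Finset.univ.filter (fun x => x ∈ C) with hS
  have hScard : S.card = n := by
    rw [hn, Nat.card_eq_fintype_card, Fintype.card_subtype]
  set I : Finset G := S.filter (fun x => x * x = 1) with hI
  have hIcard : I.card = 2 := by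
    rw [← hinvol, Nat.card_eq_fintype_card, Fintype.card_subtype, hI, hS, Finset.filter_filter]
  have hcomm : ∀ h, h ∉ C → ∀ x ∈ C, (Commute h x ↔ x * x = 1) := by
    intro h hh x hx
    have e := hinv h hh x hx
    constructor
    · intro hc
      rw [hc.eq, mul_inv_cancel_right] at e
      nth_rw 1 [e]
      exact inv_mul_cancel x
    · intro hxx
      rw [inv_eq_of_mul_eq_one_left hxx, mul_inv_eq_iff_eq_mul] at e
      exact e
  have hmul : ∀ h, h ∉ C → ∀ y, y ∉ C → h⁻¹ * y ∈ C := by
    intro h hh y hy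
    rw [Subgroup.mul_mem_iff_of_index_two hidx, inv_mem_iff]
    exact iff_of_false hh hy
  have hcount : ∀ x : G, (Finset.univ.filter (fun y => Commute x y)).card =
      if x ∈ I then 2 * n else if x ∈ S then n else 4 := by
    intro x
    split_ifs with h1 h2
    · simp only [hI, hS, Finset.mem_filter, Finset.mem_univ, true_and] at h1
      rw [Finset.filter_true_of_mem, Finset.card_univ, ← Nat.card_eq_fintype_card, hG]
      intro y _
      by_cases hy : y ∈ C
      · exact hab x h1.1 y hy
      · exact ((hcomm y hy x h1.1).2 h1.2).symm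
    · simp only [hI, hS, Finset.mem_filter, Finset.mem_univ, true_and] at h1 h2
      rw [← hScard, hS]
      congr 1
      ext y
      simp only [Finset.mem_filter, Finset.mem_univ, true_and]
      refine ⟨fun hc => ?_, fun hy => hab x h2 y hy⟩
      by_contra hy
      exact h1 ⟨h2, (hcomm y hy x h2).1 hc.symm⟩
    · simp only [hS, Finset.mem_filter, Finset.mem_univ, true_and] at h2
      have he : Finset.univ.filter (fun y => Commute x y) = I ∪ I.image (fun c => x * c) := by
        ext y
        simp only [Finset.mem_filter, Finset.mem_univ, true_and, Finset.mem_union, hI, hS,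
          Finset.mem_image]
        constructor
        · intro hc
          by_cases hy : y ∈ C
          · exact Or.inl ⟨hy, (hcomm x h2 y hy).1 hc⟩
          · exact Or.inr ⟨x⁻¹ * y, ⟨hmul x h2 y hy, (hcomm x h2 _ (hmul x h2 y hy)).1
              (((Commute.refl x).inv_right).mul_right hc)⟩, mul_inv_cancel_left x y⟩
        · rintro (⟨hy, hyy⟩ | ⟨c, ⟨hc, hcc⟩, rfl⟩)
          · exact (hcomm x h2 y hy).2 hyy
          · exact (Commute.refl x).mul_right ((hcomm x h2 c hc).2 hcc)
      rw [he, Finset.card_union_of_disjoint, Finset.card_image_of_injective _ (mul_right_injective x),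
        hIcard]
      rw [Finset.disjoint_left]
      intro y hy hy'
      simp only [hI, hS, Finset.mem_filter, Finset.mem_univ, true_and, Finset.mem_image] at hy hy'
      obtain ⟨c, ⟨hc, -⟩, rfl⟩ := hy'
      exact h2 ((C.mul_mem_cancel_right hc).1 hy.1)
  have hkey := card_comm_eq_card_conjClasses_mul_card G
  rw [Nat.card_eq_fintype_card,
    Fintype.card_congr (Equiv.subtypeProdEquivSigmaSubtype (fun a b : G => Commute a b)),
    Fintype.card_sigma] at hkey
  simp only [Fintype.card_subtype, hcount] at hkey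
  rw [hG, ← Finset.sum_sdiff (Finset.subset_univ S), ← Finset.sum_sdiff (Finset.filter_subset _ S : I ⊆ S)] at hkey
  rw [Finset.sum_congr rfl (fun x hx => show (if x ∈ I then 2 * n else if x ∈ S then n else 4) = 4 by
      have hx' := (Finset.mem_sdiff.1 hx).2
      rw [if_neg (fun h => hx' (Finset.filter_subset _ _ h)), if_neg hx']),
    Finset.sum_congr rfl (fun x hx => show (if x ∈ I then 2 * n else if x ∈ S then n else 4) = n by
      rw [if_neg (Finset.mem_sdiff.1 hx).2, if_pos (Finset.mem_sdiff.1 hx).1]),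
    Finset.sum_congr rfl (fun x (hx : x ∈ I) =>
      show (if x ∈ I then 2 * n else if x ∈ S then n else 4) = 2 * n by rw [if_pos hx])] at hkey
  simp only [Finset.sum_const, smul_eq_mul, Finset.card_sdiff_of_subset (Finset.subset_univ S),
    Finset.card_sdiff_of_subset (Finset.filter_subset _ S : I ⊆ S), Finset.card_univ, hScard, hIcard,
    ← Nat.card_eq_fintype_card, hG] at hkey
  have hnpos : 2 ≤ n := by
    rw [← hScard, ← hIcard]; exact Finset.card_filter_le _ _
  rw [← hI, hIcard] at hkey
  have h2n : 2 * n - n = n := by omega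
  rw [h2n] at hkey
  obtain ⟨m, hm⟩ : ∃ m, n = m + 2 := ⟨n - 2, by omega⟩
  rw [hm, Nat.add_sub_cancel] at hkey
  rw [hm]
  nlinarith [hkey]

variable {F : Type*} [Field F]

local notation "SL₂" F => Matrix.SpecialLinearGroup (Fin 2) F

/-- The trace of `g` is nonsplit iff `g` has no eigenvector. -/
lemma not_isSplitTrace_of_no_eigvec {g : SL₂ F}
    (h : ∀ (c : F) (v : Fin 2 → F), v ≠ 0 → (g : Matrix (Fin 2) (Fin 2) F).mulVec v ≠ c • v) :
    ¬ IsSplitTrace (tr g) := by
  intro hs
  obtain ⟨a, ha⟩ := isSplitTrace_iff_root.1 hs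
  have hd : ((g : Matrix (Fin 2) (Fin 2) F) - a • 1).det = 0 := by
    rw [Matrix.det_fin_two]
    simp
    rw [tr] at ha
    linear_combination ha + det_eq g
  obtain ⟨v, hv, hv0⟩ := Matrix.exists_mulVec_eq_zero_iff.2 hd
  refine h a v hv ?_
  rw [Matrix.sub_mulVec, Matrix.smul_mulVec, Matrix.one_mulVec, sub_eq_zero] at hv0
  exact hv0

/-- In a nonsplit torus every nonsplit trace occurs. -/
lemma exists_mem_centralizer_tr [Finite F] {g : SL₂ F} (hs : ¬ IsSplitTrace (tr g)) {s : F}
    (hs' : ¬ IsSplitTrace s) :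
    ∃ x ∈ Subgroup.centralizer ({g} : Set (SL₂ F)), tr x = s := by
  classical
  have := Fintype.ofFinite F
  have ht := sq_ne_four_of_not_isSplitTrace hs
  have hs4 := sq_ne_four_of_not_isSplitTrace hs'
  have hg := not_mem_center_of_tr_sq_ne ht
  set t := tr g with ht_def
  suffices h : ∃ a b : F, a ^ 2 + t * a * b + b ^ 2 = 1 ∧ 2 * a + b * t = s by
    obtain ⟨a, b, hn, htr⟩ := h
    let M : Matrix (Fin 2) (Fin 2) F := a • 1 + b • (g : Matrix (Fin 2) (Fin 2) F)
    have hM : M.det = 1 := by
      rw [← hn, Matrix.det_fin_two]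
      simp [M, ht_def, tr]
      linear_combination b ^ 2 * det_eq g
    let x : SL₂ F := ⟨M, hM⟩
    refine ⟨x, (mem_centralizer_iff_exists hg).2 ⟨a, b, rfl⟩, ?_⟩
    rw [tr, ← htr, ht_def, tr]
    simp [x, M]
    ring
  by_cases h2 : (2 : F) = 0
  · have : CharP F 2 := CharTwo.of_one_ne_zero_of_two_eq_zero one_ne_zero h2
    have ht0 : t ≠ 0 := fun h => ht (by linear_combination (t * h) - 2 * h2)
    have hs0 : s ≠ 0 := fun h => hs' (isSplitTrace_iff_root.2 ⟨1, by linear_combination -h + h2⟩)
    -- the image of `x ↦ x² + x` is an additive subgroup of index two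
    let ψ : F →+ F :=
      { toFun := fun x => x ^ 2 + x
        map_zero' := by simp
        map_add' := fun x y => by rw [CharTwo.add_sq]; ring }
    have hidx : ψ.range.index = 2 := by
      have h1 := ψ.ker.card_mul_index
      rw [AddSubgroup.index_ker] at h1
      have hker : Nat.card ψ.ker = 2 := by
        rw [show (ψ.ker : Type _) = ↥((ψ.ker : Set F)) from rfl, Nat.card_coe_set_eq,
          show (ψ.ker : Set F) = {0, 1} from ?_, Set.ncard_pair zero_ne_one]
        ext x
        constructor
        · intro hx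
          have h3 : x * (x + 1) = 0 := by
            have : x ^ 2 + x = 0 := hx
            linear_combination this
          rcases mul_eq_zero.1 h3 with h4 | h4
          · exact Or.inl h4
          · exact Or.inr (Set.mem_singleton_iff.2 (CharTwo.add_eq_zero.1 h4))
        · rintro (rfl | rfl)
          · exact map_zero ψ
          · show (1 : F) ^ 2 + 1 = 0
            linear_combination h2
      have h2' := ψ.range.card_mul_index
      rw [hker] at h1
      have hpos : 0 < Nat.card ψ.range := Nat.card_pos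
      nlinarith
    have key : ∀ r : F, r ≠ 0 → ¬ IsSplitTrace r → (r ^ 2)⁻¹ ∉ ψ.range := by
      rintro r hr0 hr ⟨x, hx⟩
      apply hr
      rw [isSplitTrace_iff_root]
      refine ⟨r * x, ?_⟩
      have hx' : x ^ 2 + x = (r ^ 2)⁻¹ := hx
      field_simp at hx'
      linear_combination hx' + (1 - r ^ 2 * x) * h2
    have hsum : (s ^ 2)⁻¹ + (t ^ 2)⁻¹ ∈ ψ.range :=
      (AddSubgroup.add_mem_iff_of_index_two hidx).2 (iff_of_false (key s hs0 hs') (key t ht0 hs))
    obtain ⟨x, hx⟩ := hsum
    have hx' : x ^ 2 + x = (s ^ 2)⁻¹ + (t ^ 2)⁻¹ := hx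
    field_simp at hx'
    refine ⟨s * x, s / t, ?_, ?_⟩
    · field_simp
      linear_combination hx' + s ^ 2 * h2
    · field_simp
      linear_combination x * h2
  · have hr2 : ringChar F ≠ 2 := fun h => by
      have : CharP F 2 := ringChar.of_eq h
      exact h2 CharTwo.two_eq_zero
    have key : ∀ r : F, ¬ IsSplitTrace r → ¬ IsSquare (r ^ 2 - 4) := by
      rintro r hr ⟨z, hz⟩
      apply hr
      rw [isSplitTrace_iff_root]
      refine ⟨(r + z) / 2, ?_⟩
      field_simp
      linear_combination -hz
    have hsq : IsSquare ((s ^ 2 - 4) * (t ^ 2 - 4)) := by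
      have e1 := quadraticChar_neg_one_iff_not_isSquare.2 (key s hs')
      have e2 := quadraticChar_neg_one_iff_not_isSquare.2 (key t hs)
      refine (quadraticChar_one_iff_isSquare (mul_ne_zero (sub_ne_zero.2 hs4) (sub_ne_zero.2 ht))).1 ?_
      rw [map_mul, e1, e2]
      norm_num
    obtain ⟨z, hz⟩ := hsq
    have hD : t ^ 2 - 4 ≠ 0 := sub_ne_zero.2 ht
    refine ⟨(s - z / (t ^ 2 - 4) * t) / 2, z / (t ^ 2 - 4), ?_, ?_⟩
    · field_simp
      linear_combination (t ^ 2 - 4) * hz
    · field_simp
      ring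

/-- Every nonsplit element is conjugate into a given nonsplit torus. -/
lemma exists_conj_mem_nonsplit [Finite F] {g h : SL₂ F} (hg : ¬ IsSplitTrace (tr g))
    (hh : ¬ IsSplitTrace (tr h)) :
    ∃ c : SL₂ F, c * h * c⁻¹ ∈ Subgroup.centralizer ({g} : Set (SL₂ F)) := by
  obtain ⟨x, hx, hxt⟩ := exists_mem_centralizer_tr hg hh
  obtain ⟨c, hc⟩ := isConj_iff.1 (isConj_of_tr_eq (sq_ne_four_of_not_isSplitTrace hh) hxt.symm)
  exact ⟨c, hc ▸ hx⟩

/-- The class number of the normaliser of a torus (`q` odd). -/
lemma card_conjClasses_normalizer_torus [Fintype F] (h2 : (2 : F) ≠ 0) {g : SL₂ F}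
    (ht : tr g ^ 2 ≠ 4) :
    2 * Nat.card (ConjClasses (Subgroup.normalizer
        ((Subgroup.centralizer ({g} : Set (SL₂ F)) : Subgroup (SL₂ F)) : Set (SL₂ F)))) =
      Nat.card (Subgroup.centralizer ({g} : Set (SL₂ F))) + 6 := by
  have hN := card_normalizer_torus ht
  have hg := not_mem_center_of_tr_sq_ne ht
  set C := Subgroup.centralizer ({g} : Set (SL₂ F)) with hC
  set N := Subgroup.normalizer ((C : Subgroup (SL₂ F)) : Set (SL₂ F)) with hN'
  have hle : C ≤ N := Subgroup.le_normalizer
  have e : Nat.card (C.subgroupOf N) = Nat.card C :=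
    Nat.card_congr (Subgroup.subgroupOfEquivOfLe hle).toEquiv
  rw [← e]
  refine card_conjClasses_of_inverting (C.subgroupOf N) ?_ ?_ ?_ ?_
  · have h := (C.subgroupOf N).card_mul_index
    rw [e, hN, mul_comm 2] at h
    exact Nat.eq_of_mul_eq_mul_left Nat.card_pos h
  · intro x hx y hy
    exact Subtype.ext (centralizer_commute hg (Subgroup.mem_subgroupOf.1 hx) (Subgroup.mem_subgroupOf.1 hy))
  · intro h hh x hx
    apply Subtype.ext
    refine inverts_torus ht (((mem_normalizer_torus_iff ht).1 h.2).resolve_left fun e => hh ?_)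
      (Subgroup.mem_subgroupOf.1 hx)
    exact Subgroup.mem_subgroupOf.2
      (Subgroup.mem_centralizer_singleton_iff.2 (mul_inv_eq_iff_eq_mul.1 e))
  · have hm1 : (-1 : SL₂ F) ∈ C := Subgroup.center_le_centralizer _ neg_one_mem_center
    rw [Nat.card_eq_two_iff' (⟨1, one_mem _, one_mul 1⟩ : {x : N // x ∈ C.subgroupOf N ∧ x * x = 1})]
    refine ⟨⟨⟨-1, hle hm1⟩, Subgroup.mem_subgroupOf.2 hm1, Subtype.ext (by simp)⟩, ?_, ?_⟩
    · intro h
      exact neg_one_ne_one h2 (congrArg (fun z : {x : N // x ∈ C.subgroupOf N ∧ x * x = 1} =>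
        ((z : N) : SL₂ F)) h)
    · rintro ⟨⟨x, hxN⟩, hxC, hxx⟩ hne
      refine Subtype.ext (Subtype.ext (eq_neg_one_of_mul_self h2 (fun h1 => hne ?_)
        (congrArg Subtype.val hxx)))
      exact Subtype.ext (Subtype.ext h1)

end CfsgLib.SL2
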