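import Cfsg.Prelude.Def_ParabolicCharacters
import Cfsg.Agent.Eq.Def_ParabolicCharacters
import Cfsg.Agent.SL2.Basic
import Mathlib.GroupTheory.CommutingProbability

/-!
# Classes of the Borel subgroup of `SL₂(q)`
-/

set_option autoImplicit false

open Cfsg

namespace CfsgLib.SL2

variable {F : Type*} [Field F]

local notation "SL₂" F => Matrix.SpecialLinearGroup (Fin 2) F

lemma card_line [Fintype F] (x y : F) (h : ¬ (x = 0 ∧ y = 0)) :
    Nat.card {p : F × F // p.1 * x = p.2 * y} = Fintype.card F := by
  rw [← Nat.card_eq_fintype_card]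
  by_cases hx : x = 0
  · have hy : y ≠ 0 := fun e => h ⟨hx, e⟩
    exact Nat.card_congr
      { toFun := fun p => p.1.1
        invFun := fun c => ⟨(c, 0), by simp [hx]⟩
        left_inv := by
          rintro ⟨⟨c, d⟩, hp⟩
          simp [hx, hy] at hp
          simp [hp]
        right_inv := fun c => rfl }
  · exact Nat.card_congr
      { toFun := fun p => p.1.2
        invFun := fun d => ⟨(d * y / x, d), by field_simp⟩
        left_inv := by
          rintro ⟨⟨c, d⟩, hp⟩
          simp only at hp
          simp [← hp, hx]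
        right_inv := fun d => rfl }

/-- The Borel subgroup by entries. -/
def borelEquiv (H : Subgroup (SL₂ F)) (hH : ∀ g : SL₂ F, g ∈ H ↔ g 1 0 = 0) : H ≃ Fˣ × F where
  toFun g := (⟨(g : SL₂ F) 0 0, (g : SL₂ F) 1 1,
      by have := det_eq (g : SL₂ F); rw [(hH g).1 g.2] at this; linear_combination this,
      by have := det_eq (g : SL₂ F); rw [(hH g).1 g.2] at this; linear_combination this⟩,
    (g : SL₂ F) 0 1)
  invFun p := ⟨mk4 (p.1 : F) p.2 0 ((p.1⁻¹ : Fˣ) : F) (by simp), (hH _).2 (by simp)⟩
  left_inv g := by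
    apply Subtype.ext
    apply ext4 <;> simp [(hH g).1 g.2]
  right_inv p := by
    ext <;> simp

lemma card_conjClasses_borel [Fintype F] (hodd : Odd (Fintype.card F)) (H : Subgroup (SL₂ F))
    (hH : ∀ g : SL₂ F, g ∈ H ↔ g 1 0 = 0) :
    Nat.card (ConjClasses H) = Fintype.card F + 3 := by
  classical
  have h2 := two_ne_zero_iff_odd.2 hodd
  let k : Fˣ → F := fun a => (a : F) - ((a⁻¹ : Fˣ) : F)
  have hk : ∀ a : Fˣ, k a = 0 ↔ a = 1 ∨ a = -1 := by
    intro a
    simp only [k, sub_eq_zero, ← Units.ext_iff, eq_inv_iff_mul_eq_one]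
    constructor
    · intro h
      have h' : (a : F) * a = 1 := by rw [← Units.val_mul, h, Units.val_one]
      rcases mul_self_eq_one_iff.1 h' with e | e
      · exact Or.inl (Units.ext e)
      · exact Or.inr (Units.ext (by simpa using e))
    · rintro (rfl | rfl) <;> simp
  let e := borelEquiv H hH
  have hcomm : ∀ p : H × H, Commute p.1 p.2 ↔
      (e p.1).2 * k (e p.2).1 = (e p.2).2 * k (e p.1).1 := by
    rintro ⟨x, y⟩
    obtain ⟨⟨a, c⟩, rfl⟩ := e.symm.surjective x
    obtain ⟨⟨b, d'⟩, rfl⟩ := e.symm.surjective y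
    simp only [Equiv.apply_symm_apply]
    rw [commute_iff_eq]
    constructor
    · intro h
      have h01 := congrArg (fun z : H => (z : SL₂ F) 0 1) h
      simp [e, borelEquiv, Matrix.mul_apply, Fin.sum_univ_two] at h01
      simp only [k]
      push_cast
      linear_combination -h01
    · intro h
      simp only [k] at h
      apply Subtype.ext
      apply ext4 <;> simp [e, borelEquiv, Matrix.mul_apply, Fin.sum_univ_two]
      · ring
      · push_cast at h; linear_combination -h
      · ring
  have hcard : Nat.card H = (Fintype.card F - 1) * Fintype.card F := by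
    rw [Nat.card_congr e, Nat.card_prod, Nat.card_eq_fintype_card, Fintype.card_units,
      Nat.card_eq_fintype_card]
  have e2 : {p : H × H // Commute p.1 p.2} ≃
      Σ ab : Fˣ × Fˣ, {cd : F × F // cd.1 * k ab.2 = cd.2 * k ab.1} :=
    { toFun := fun p => ⟨((e p.1.1).1, (e p.1.2).1), ⟨((e p.1.1).2, (e p.1.2).2), (hcomm p.1).1 p.2⟩⟩
      invFun := fun s => ⟨(e.symm (s.1.1, s.2.1.1), e.symm (s.1.2, s.2.1.2)),
        (hcomm _).2 (by simpa using s.2.2)⟩
      left_inv := fun p => by simp
      right_inv := by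
        rintro ⟨⟨a, b⟩, ⟨⟨c, d'⟩, h⟩⟩
        refine Sigma.subtype_ext ?_ ?_ <;> simp }
  have hpairs : Nat.card {p : H × H // Commute p.1 p.2} + 4 * Fintype.card F =
      4 * Fintype.card F ^ 2 + (Fintype.card F - 1) ^ 2 * Fintype.card F := by
    set Z : Finset (Fˣ × Fˣ) := ({1, -1} : Finset Fˣ) ×ˢ ({1, -1} : Finset Fˣ) with hZ
    have hne : (1 : Fˣ) ≠ -1 := fun h => h2 (by
      have h' : (1 : F) = -1 := by simpa using congrArg Units.val h
      linear_combination h')
    have hZc : Z.card = 4 := by rw [hZ, Finset.card_product, Finset.card_pair hne]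
    have hval : ∀ ab : Fˣ × Fˣ, Nat.card {cd : F × F // cd.1 * k ab.2 = cd.2 * k ab.1} =
        if ab ∈ Z then Fintype.card F ^ 2 else Fintype.card F := by
      intro ab
      split_ifs with h
      · simp only [hZ, Finset.mem_product, Finset.mem_insert, Finset.mem_singleton] at h
        rw [Nat.card_congr (Equiv.subtypeUnivEquiv (fun cd => by rw [(hk _).2 h.1, (hk _).2 h.2]; simp)),
          Nat.card_prod, Nat.card_eq_fintype_card, sq]
      · refine card_line _ _ fun h' => h ?_
        simp only [hZ, Finset.mem_product, Finset.mem_insert, Finset.mem_singleton]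
        exact ⟨(hk _).1 h'.2, (hk _).1 h'.1⟩
    rw [Nat.card_congr e2, Nat.card_sigma, Finset.sum_congr rfl (fun ab _ => hval ab),
      Finset.sum_ite, Finset.sum_const, Finset.sum_const, Finset.filter_mem_eq_inter,
      Finset.univ_inter, hZc]
    rw [show (Finset.univ.filter fun ab => ab ∉ Z) = Zᶜ by ext; simp, Finset.card_compl, hZc,
      Fintype.card_prod, Fintype.card_units, smul_eq_mul, smul_eq_mul]
    have hle : 4 ≤ (Fintype.card F - 1) * (Fintype.card F - 1) := by
      have := Finset.card_le_univ Z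
      rwa [hZc, Fintype.card_prod, Fintype.card_units] at this
    rw [add_assoc, ← add_mul, Nat.sub_add_cancel hle, sq (Fintype.card F - 1)]
  have hb := card_comm_eq_card_conjClasses_mul_card H
  rw [hb, hcard] at hpairs
  obtain ⟨r, hr⟩ : ∃ r, Fintype.card F = r + 2 :=
    ⟨_, (Nat.sub_add_cancel (Fintype.one_lt_card (α := F))).symm⟩
  rw [hr, show r + 2 - 1 = r + 1 from rfl] at hpairs
  rw [hr]
  have key : Nat.card (ConjClasses H) * ((r + 1) * (r + 2)) =
      (r + 2 + 3) * ((r + 1) * (r + 2)) := by
    linarith [hpairs]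
  exact Nat.eq_of_mul_eq_mul_right (by positivity) key

/-- The frozen form of the Borel subgroup. -/
lemma mem_comap_upperTriangular (g : SL₂ F) :
    g ∈ (Cfsg.upperTriangularGL 2 F).comap Matrix.SpecialLinearGroup.toGL ↔ g 1 0 = 0 := by
  constructor
  · intro h
    exact (Subgroup.mem_comap.1 h) (show (0 : Fin 2) < 1 by decide)
  · intro h i j hij
    fin_cases i <;> fin_cases j <;> simp at hij ⊢
    exact h

end CfsgLib.SL2
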