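import Cfsg.Prelude.Def_LocalEven
import Cfsg.Prelude.Def_TwoFusion
import Cfsg.Agent.Eq.Def_LocalEven
import Cfsg.Agent.SL2.Sylow

/-!
# The natural `SL₂(q)`-module inside a group
-/

set_option autoImplicit false

open Cfsg

namespace CfsgLib.SL2

variable {F : Type*} [Field F]

local notation "SL₂" F => Matrix.SpecialLinearGroup (Fin 2) F
local notation "M₂" F => Matrix (Fin 2) (Fin 2) F

/-- A normalised identification of a faithful natural module: the Sylow subgroup goes to `U`. -/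
structure NatModel {G : Type*} [Group G] (F : Type*) [Field F] (V L T : Subgroup G) where
  rho : L ≃* Matrix.SpecialLinearGroup (Fin 2) F
  nu : V ≃ (Fin 2 → F)
  nu_mul : ∀ v w : V, nu (v * w) = nu v + nu w
  norm : L ≤ Subgroup.normalizer (V : Set G)
  act : ∀ (l : L) (v w : V), (w : G) = (l : G) * (v : G) * (l : G)⁻¹ →
    nu w = ((rho l : Matrix.SpecialLinearGroup (Fin 2) F) : Matrix (Fin 2) (Fin 2) F).mulVec (nu v)
  T_le : T ≤ L
  mem_T : ∀ l : L, (l : G) ∈ T ↔ rho l ∈ (U : Subgroup (Matrix.SpecialLinearGroup (Fin 2) F))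

lemma charP_of_card [Fintype F] {p n : ℕ} [Fact p.Prime] (hF : Fintype.card F = p ^ n) : CharP F p := by
  obtain ⟨c, hc⟩ := CharP.exists F
  obtain ⟨m, hcp, hm⟩ := FiniteField.card F c
  have h : c ∣ p ^ n := ⟨c ^ ((m : ℕ) - 1), by
    rw [← hF, hm, ← pow_succ', Nat.sub_add_cancel m.pos]⟩
  have := (Nat.prime_dvd_prime_iff_eq hcp (Fact.out : p.Prime)).1 (hcp.dvd_of_dvd_pow h)
  exact this ▸ hc

lemma exists_natModel [Fintype F] {G : Type*} [Group G] [Finite G] {p n : ℕ} [Fact p.Prime]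
    (hF : Fintype.card F = p ^ n) {V L : Subgroup G} (hnat : IsNaturalSL2Module F V L)
    (hf : L ⊓ Subgroup.centralizer (V : Set G) = ⊥) (S : Sylow p ↥L) {T : Subgroup G}
    (hT : T = ((S : Subgroup ↥L).map L.subtype)) : Nonempty (NatModel F V L T) := by
  have := charP_of_card hF
  obtain ⟨hN, ρ, ψ, hsur, hker, hact⟩ := hnat
  have hinj : Function.Injective ρ := by
    rw [← MonoidHom.ker_eq_bot_iff, hker, eq_bot_iff]
    intro x hx
    have : (x : G) ∈ L ⊓ Subgroup.centralizer (V : Set G) := ⟨x.2, hx⟩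
    rw [hf, Subgroup.mem_bot] at this
    exact Subgroup.mem_bot.2 (Subtype.ext this)
  let e : L ≃* SL₂ F := MulEquiv.ofBijective ρ ⟨hinj, hsur⟩
  obtain ⟨c, hc⟩ := exists_conj_uSylow (S.mapSurjective (f := ρ) hsur)
  let nu : V ≃ (Fin 2 → F) :=
    { toFun := fun v => ((c⁻¹ : SL₂ F) : M₂ F).mulVec (ψ (Additive.ofMul v))
      invFun := fun x => Additive.toMul (ψ.symm ((c : M₂ F).mulVec x))
      left_inv := fun v => by
        show Additive.toMul (ψ.symm ((c : M₂ F).mulVec (((c⁻¹ : SL₂ F) : M₂ F).mulVec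
          (ψ (Additive.ofMul v))))) = v
        rw [Matrix.mulVec_mulVec, ← Matrix.SpecialLinearGroup.coe_mul, mul_inv_cancel,
          Matrix.SpecialLinearGroup.coe_one, Matrix.one_mulVec, AddEquiv.symm_apply_apply]
        rfl
      right_inv := fun x => by
        show ((c⁻¹ : SL₂ F) : M₂ F).mulVec (ψ (Additive.ofMul (Additive.toMul
          (ψ.symm ((c : M₂ F).mulVec x))))) = x
        rw [ofMul_toMul, AddEquiv.apply_symm_apply, Matrix.mulVec_mulVec,
          ← Matrix.SpecialLinearGroup.coe_mul, inv_mul_cancel, Matrix.SpecialLinearGroup.coe_one,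
          Matrix.one_mulVec] }
  refine ⟨⟨e.trans (MulAut.conj c⁻¹), nu, fun v w => ?_, hN, fun l v w hw => ?_, ?_, fun l => ?_⟩⟩
  · show ((c⁻¹ : SL₂ F) : M₂ F).mulVec (ψ (Additive.ofMul (v * w))) = _
    rw [ofMul_mul, map_add, Matrix.mulVec_add]
    rfl
  · obtain ⟨w', hw', hψ⟩ := hact l v
    have hww : w = w' := Subtype.ext (hw.trans hw'.symm)
    subst hww
    show ((c⁻¹ : SL₂ F) : M₂ F).mulVec (ψ (Additive.ofMul w)) =
      ((c⁻¹ * ρ l * c⁻¹⁻¹ : SL₂ F) : M₂ F).mulVec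
        (((c⁻¹ : SL₂ F) : M₂ F).mulVec (ψ (Additive.ofMul v)))
    rw [hψ, Matrix.mulVec_mulVec, Matrix.mulVec_mulVec, ← Matrix.SpecialLinearGroup.coe_mul,
      ← Matrix.SpecialLinearGroup.coe_mul]
    congr 2
    group
    rfl
  · rw [hT]; exact Subgroup.map_subtype_le _
  · show (l : G) ∈ T ↔ c⁻¹ * ρ l * c⁻¹⁻¹ ∈ _
    have h1 : (l : G) ∈ T ↔ l ∈ (S : Subgroup L) := by
      rw [hT]
      exact ⟨fun ⟨x, hx, h⟩ => by rwa [← (Subtype.ext h : x = l)], fun h => ⟨l, h, rfl⟩⟩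
    have h2 : l ∈ (S : Subgroup L) ↔ ρ l ∈ (S : Subgroup L).map ρ :=
      ⟨fun h => ⟨l, h, rfl⟩, fun ⟨x, hx, h⟩ => hinj h ▸ hx⟩
    rw [h1, h2, show (S : Subgroup L).map ρ = (S.mapSurjective (f := ρ) hsur : Subgroup (SL₂ F)) from rfl,
      hc, Subgroup.mem_map_equiv, MulAut.conj_symm_apply, inv_inv]

namespace NatModel

variable {G : Type*} [Group G] {V L T : Subgroup G}

local notation "X" => (V ⊓ Subgroup.centralizer ((T : Subgroup G) : Set G))

lemma conj_mem (M : NatModel F V L T) (l : L) {v : G} (hv : v ∈ V) :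
    (l : G) * v * (l : G)⁻¹ ∈ V :=
  (Subgroup.mem_normalizer_iff.1 (M.norm l.2) v).1 hv

lemma nu_one (M : NatModel F V L T) : M.nu 1 = 0 := by
  simpa using M.nu_mul 1 1

lemma nu_inv (M : NatModel F V L T) (v : V) : M.nu v⁻¹ = -M.nu v := by
  rw [eq_neg_iff_add_eq_zero, ← M.nu_mul, inv_mul_cancel, M.nu_one]

lemma nu_conj (M : NatModel F V L T) (l : L) (v : V) :
    M.nu ⟨(l : G) * v * (l : G)⁻¹, M.conj_mem l v.2⟩ =
      ((M.rho l : SL₂ F) : M₂ F).mulVec (M.nu v) :=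
  M.act l v _ rfl

lemma commute_iff_fix (M : NatModel F V L T) (l : L) (v : V) :
    Commute (l : G) (v : G) ↔ ((M.rho l : SL₂ F) : M₂ F).mulVec (M.nu v) = M.nu v := by
  rw [← M.nu_conj, M.nu.injective.eq_iff, Subtype.ext_iff]
  exact mul_inv_eq_iff_eq_mul.symm

lemma exists_u (M : NatModel F V L T) {t : G} (ht : t ∈ T) :
    ∃ c : F, M.rho ⟨t, M.T_le ht⟩ = u c :=
  mem_U.1 ((M.mem_T ⟨t, M.T_le ht⟩).1 ht)

lemma exists_mem_T (M : NatModel F V L T) (c : F) : ∃ t : L, (t : G) ∈ T ∧ M.rho t = u c :=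
  ⟨M.rho.symm (u c), (M.mem_T _).2 (by rw [MulEquiv.apply_symm_apply]; exact u_mem_U c),
    MulEquiv.apply_symm_apply _ _⟩

lemma u_mulVec (c : F) (x : Fin 2 → F) :
    ((u c : SL₂ F) : M₂ F).mulVec x = ![x 0 + c * x 1, x 1] := by
  ext i
  fin_cases i <;> simp [Matrix.mulVec, dotProduct]

lemma mem_X_iff (M : NatModel F V L T) (v : V) : (v : G) ∈ X ↔ M.nu v 1 = 0 := by
  constructor
  · intro h
    obtain ⟨t, ht, hu⟩ := M.exists_mem_T 1
    have h1 := (M.commute_iff_fix t v).1 (Subgroup.mem_centralizer_iff.1 h.2 t ht)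
    rw [hu, u_mulVec] at h1
    simpa using congrFun h1 0
  · intro h
    refine ⟨v.2, Subgroup.mem_centralizer_iff.2 fun t ht => ?_⟩
    obtain ⟨c, hc⟩ := M.exists_u ht
    refine ((M.commute_iff_fix ⟨t, M.T_le ht⟩ v).2 ?_).eq
    rw [hc, u_mulVec, h]
    ext i
    fin_cases i <;> simp [h]

lemma mem_X_of_nu (M : NatModel F V L T) {x : F} :
    ((M.nu.symm ![x, 0] : V) : G) ∈ X :=
  (M.mem_X_iff _).2 (by simp)

lemma nu_comm (M : NatModel F V L T) (v : V) (l : L) :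
    ∃ w : V, (w : G) = (v : G) * l * (v : G)⁻¹ * (l : G)⁻¹ ∧
      M.nu w = M.nu v - ((M.rho l : SL₂ F) : M₂ F).mulVec (M.nu v) := by
  refine ⟨v * ⟨(l : G) * v * (l : G)⁻¹, M.conj_mem l v.2⟩⁻¹, ?_, ?_⟩
  · show (v : G) * ((l : G) * v * (l : G)⁻¹)⁻¹ = _
    group
  · rw [M.nu_mul, M.nu_inv, M.nu_conj, ← sub_eq_add_neg]

lemma comm_mem_X (M : NatModel F V L T) {v t : G} (hv : v ∈ V) (ht : t ∈ T) :
    v * t * v⁻¹ * t⁻¹ ∈ X := by
  obtain ⟨w, hw, hnu⟩ := M.nu_comm ⟨v, hv⟩ ⟨t, M.T_le ht⟩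
  obtain ⟨c, hc⟩ := M.exists_u ht
  rw [show v * t * v⁻¹ * t⁻¹ = (w : G) from hw.symm, M.mem_X_iff, hnu, hc, u_mulVec]
  simp

lemma natural_action [Fintype F] [Finite G] (M : NatModel F V L T) {p n : ℕ}
    (hF : Fintype.card F = p ^ n) :
    ⁅⁅V, T⁆, T⁆ = ⊥ ∧ Nat.card V = p ^ (2 * n) ∧ Nat.card ↥X = p ^ n ∧
      ∀ s ∈ T, s ≠ 1 → (V ⊓ Subgroup.centralizer ({s} : Set G)) = X ∧ ⁅V, T⁆ = X ∧
        ⁅V, Subgroup.zpowers s⁆ = X ∧ ∀ v ∈ V, v ∉ Subgroup.centralizer (T : Set G) →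
          Subgroup.closure {x : G | ∃ t ∈ T, x = v * t * v⁻¹ * t⁻¹} = X := by
  have hle : ⁅V, T⁆ ≤ X := Subgroup.commutator_le.2 fun v hv t ht => by
    rw [commutatorElement_def]; exact M.comm_mem_X hv ht
  refine ⟨?_, ?_, ?_, fun s hs hs1 => ?_⟩
  · rw [Subgroup.commutator_eq_bot_iff_le_centralizer]
    exact hle.trans inf_le_right
  · rw [Nat.card_congr M.nu, Nat.card_eq_fintype_card, Fintype.card_fun, hF, Fintype.card_fin,
      ← pow_mul, mul_comm]
  · rw [← hF, ← Nat.card_eq_fintype_card]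
    exact Nat.card_congr
      { toFun := fun v => M.nu ⟨v, v.2.1⟩ 0
        invFun := fun x => ⟨_, M.mem_X_of_nu (x := x)⟩
        left_inv := fun v => by
          apply Subtype.ext
          have h := (M.mem_X_iff ⟨v, v.2.1⟩).1 v.2
          show ((M.nu.symm ![M.nu ⟨v, v.2.1⟩ 0, 0] : V) : G) = v
          rw [show ![M.nu ⟨v, v.2.1⟩ 0, 0] = M.nu ⟨v, v.2.1⟩ by ext i; fin_cases i <;> simp [h],
            Equiv.symm_apply_apply]
        right_inv := fun x => by simp }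
  · obtain ⟨c, hc⟩ := M.exists_u hs
    have hc0 : c ≠ 0 := by
      rintro rfl
      rw [u_zero, ← map_one M.rho, M.rho.injective.eq_iff] at hc
      exact hs1 (congrArg Subtype.val hc)
    refine ⟨le_antisymm (fun v hv => ?_) (inf_le_inf_left _ (Subgroup.centralizer_le (by simpa using hs))),
      le_antisymm hle ?_, le_antisymm ?_ ?_, fun v hv hvT => ?_⟩
    · have h1 := (M.commute_iff_fix ⟨s, M.T_le hs⟩ ⟨v, hv.1⟩).1
        (Subgroup.mem_centralizer_iff.1 hv.2 s rfl)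
      rw [hc, u_mulVec] at h1
      exact (M.mem_X_iff ⟨v, hv.1⟩).2 (by simpa [hc0] using congrFun h1 0)
    · intro x hx
      obtain ⟨w, hw, hnu⟩ := M.nu_comm (M.nu.symm ![0, -(M.nu ⟨x, hx.1⟩ 0) / c]) ⟨s, M.T_le hs⟩
      have : w = (⟨x, hx.1⟩ : V) := M.nu.injective (by
        rw [hnu, hc, u_mulVec, Equiv.apply_symm_apply]
        ext i
        fin_cases i
        · simp; field_simp
        · simp [(M.mem_X_iff ⟨x, hx.1⟩).1 hx])
      rw [show x = (w : G) by rw [this], hw, ← commutatorElement_def]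
      exact Subgroup.commutator_mem_commutator (M.nu.symm _).2 hs
    · exact (Subgroup.commutator_mono le_rfl (Subgroup.zpowers_le.2 hs)).trans hle
    · intro x hx
      obtain ⟨w, hw, hnu⟩ := M.nu_comm (M.nu.symm ![0, -(M.nu ⟨x, hx.1⟩ 0) / c]) ⟨s, M.T_le hs⟩
      have : w = (⟨x, hx.1⟩ : V) := M.nu.injective (by
        rw [hnu, hc, u_mulVec, Equiv.apply_symm_apply]
        ext i
        fin_cases i
        · simp; field_simp
        · simp [(M.mem_X_iff ⟨x, hx.1⟩).1 hx])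
      rw [show x = (w : G) by rw [this], hw, ← commutatorElement_def]
      exact Subgroup.commutator_mem_commutator (M.nu.symm _).2 (Subgroup.mem_zpowers s)
    · refine le_antisymm ((Subgroup.closure_le _).2 ?_) fun x hx => ?_
      · rintro _ ⟨t, ht, rfl⟩
        exact M.comm_mem_X hv ht
      · have hy : M.nu ⟨v, hv⟩ 1 ≠ 0 := fun h => hvT ((M.mem_X_iff ⟨v, hv⟩).2 h).2
        obtain ⟨t, ht, htu⟩ := M.exists_mem_T (-(M.nu ⟨x, hx.1⟩ 0) / M.nu ⟨v, hv⟩ 1)
        obtain ⟨w, hw, hnu⟩ := M.nu_comm ⟨v, hv⟩ t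
        have : w = (⟨x, hx.1⟩ : V) := M.nu.injective (by
          rw [hnu, htu, u_mulVec]
          ext i
          fin_cases i
          · simp; field_simp
          · simp [(M.mem_X_iff ⟨x, hx.1⟩).1 hx])
        refine Subgroup.subset_closure ⟨t, ht, ?_⟩
        rw [show x = (w : G) by rw [this], hw]

lemma mem_normalizer_T [Fintype F] (M : NatModel F V L T) (g : L) :
    (g : G) ∈ Subgroup.normalizer (T : Set G) ↔ M.rho g ∈ (B : Subgroup (SL₂ F)) := by
  rw [← normalizer_U, Subgroup.mem_normalizer_iff, Subgroup.mem_normalizer_iff]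
  constructor
  · intro h x
    obtain ⟨l, rfl⟩ := M.rho.surjective x
    rw [← map_inv, ← map_mul, ← map_mul, ← M.mem_T, ← M.mem_T]
    exact h l
  · intro h x
    constructor
    · intro hx
      have := (h (M.rho ⟨x, M.T_le hx⟩)).1 ((M.mem_T _).1 hx)
      rw [← map_inv, ← map_mul, ← map_mul, ← M.mem_T] at this
      exact this
    · intro hx
      have hxL : x ∈ L := by
        have := L.mul_mem (L.mul_mem (L.inv_mem g.2) (M.T_le hx)) g.2
        simpa [mul_assoc] using this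
      refine (M.mem_T ⟨x, hxL⟩).2 ((h _).2 ?_)
      rw [← map_inv, ← map_mul, ← map_mul, ← M.mem_T]
      exact hx

lemma mem_normalizer_of_diag [Fintype F] (M : NatModel F V L T) (a : Fˣ) :
    ((M.rho.symm (d a) : L) : G) ∈ L ⊓ Subgroup.normalizer (T : Set G) :=
  ⟨(M.rho.symm (d a)).2, (M.mem_normalizer_T _).2 (by
    rw [MulEquiv.apply_symm_apply]; exact T_le_B (d_mem_T a))⟩

lemma natural_decomposition [Fintype F] [Finite G] {p : ℕ} [Fact p.Prime] [CharP F p]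
    (M : NatModel F V L T) :
    (∀ g ∈ L, g ∉ Subgroup.normalizer (T : Set G) →
      IsInternalDirectProduct X
        (V ⊓ Subgroup.centralizer ((T.map (MulAut.conj g).toMonoidHom : Subgroup G) : Set G)) V) ∧
    (∀ x ∈ L, x ≠ 1 → (orderOf x).Coprime p → (V ⊓ Subgroup.centralizer ({x} : Set G)) = ⊥) ∧
    (∀ W : Subgroup G, W ≤ X →
      L ⊓ Subgroup.normalizer (T : Set G) ≤ Subgroup.normalizer (W : Set G) → W = ⊥ ∨ W = X) ∧
    (∀ W : Subgroup G, X ≤ W → W ≤ V →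
      L ⊓ Subgroup.normalizer (T : Set G) ≤ Subgroup.normalizer (W : Set G) → W = X ∨ W = V) := by
  refine ⟨fun g hg hgN => ?_, fun x hx hx1 hxp => ?_, fun W hW hinv => ?_, fun W hXW hWV hinv => ?_⟩
  · set h := M.rho ⟨g, hg⟩ with hh
    have hB : h 1 0 ≠ 0 := fun e => hgN ((M.mem_normalizer_T ⟨g, hg⟩).2 e)
    have hmemY : ∀ v : V, ((g : G) * v * g⁻¹) ∈
        (V ⊓ Subgroup.centralizer ((T.map (MulAut.conj g).toMonoidHom : Subgroup G) : Set G)) ↔
        (v : G) ∈ X := by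
      intro v
      constructor
      · intro hv
        refine ⟨v.2, Subgroup.mem_centralizer_iff.2 fun t ht => ?_⟩
        have := Subgroup.mem_centralizer_iff.1 hv.2 _ ⟨t, ht, rfl⟩
        apply (MulAut.conj g).injective
        simpa [map_mul] using this
      · intro hv
        refine ⟨M.conj_mem ⟨g, hg⟩ v.2, Subgroup.mem_centralizer_iff.2 ?_⟩
        rintro _ ⟨t, ht, rfl⟩
        have := congrArg (MulAut.conj g) (Subgroup.mem_centralizer_iff.1 hv.2 t ht)
        simpa [map_mul] using this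
    refine ⟨inf_le_left, inf_le_left, fun a ha b hb => ?_, ?_, ?_⟩
    · have hab : (⟨a, ha.1⟩ : V) * ⟨b, hb.1⟩ = ⟨b, hb.1⟩ * ⟨a, ha.1⟩ := M.nu.injective (by
        rw [M.nu_mul, M.nu_mul, add_comm])
      exact congrArg Subtype.val hab
    · rw [eq_bot_iff]
      rintro x ⟨hx, hy⟩
      obtain ⟨v, rfl⟩ : ∃ v : V, g * (v : G) * g⁻¹ = x :=
        ⟨⟨g⁻¹ * x * g, by
          have := M.conj_mem ⟨g⁻¹, L.inv_mem hg⟩ hx.1
          simpa using this⟩, by simp [mul_assoc]⟩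
      have hv1 := (M.mem_X_iff v).1 ((hmemY v).1 hy)
      have h2 := (M.mem_X_iff ⟨_, M.conj_mem ⟨g, hg⟩ v.2⟩).1 hx
      rw [M.nu_conj ⟨g, hg⟩ v] at h2
      simp [Matrix.mulVec, dotProduct, Fin.sum_univ_two, hv1, ← hh, hB] at h2
      have hv : v = 1 := M.nu.injective (by
        rw [M.nu_one]; ext i; fin_cases i <;> simp [h2, hv1])
      simp [hv]
    · refine le_antisymm (sup_le inf_le_left inf_le_left) fun x hx => ?_
      set a := M.nu ⟨x, hx⟩ with ha
      set v : V := M.nu.symm ![a 1 / h 1 0, 0] with hv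
      set w : V := ⟨_, M.conj_mem ⟨g, hg⟩ v.2⟩ with hw
      have hwY := (hmemY v).2 M.mem_X_of_nu
      have hsplit : ((⟨x, hx⟩ * w⁻¹ : V) : G) ∈ X := by
        rw [M.mem_X_iff, M.nu_mul, M.nu_inv, hw, M.nu_conj]
        simp [Matrix.mulVec, dotProduct, Fin.sum_univ_two, hv, ← hh, ← ha]
        field_simp
        ring
      have := mul_mem (Subgroup.mem_sup_left (T := V ⊓ Subgroup.centralizer
        ((T.map (MulAut.conj g).toMonoidHom : Subgroup G) : Set G)) hsplit)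
        (Subgroup.mem_sup_right (S := X) hwY)
      rwa [show ((⟨x, hx⟩ * w⁻¹ : V) : G) = x * (g * (v : G) * g⁻¹)⁻¹ from rfl,
        inv_mul_cancel_right] at this
  · rw [eq_bot_iff]
    rintro v ⟨hv, hvx⟩
    by_contra hv1
    have hfix := (M.commute_iff_fix ⟨x, hx⟩ ⟨v, hv⟩).1 (Subgroup.mem_centralizer_iff.1 hvx x rfl)
    have hne : M.nu ⟨v, hv⟩ ≠ 0 := fun e => hv1 (Subgroup.mem_bot.2 (congrArg Subtype.val
      (M.nu.injective (e.trans M.nu_one.symm))))
    set h := M.rho ⟨x, hx⟩ with hh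
    have hdet : ((h : M₂ F) - 1).det = 0 := Matrix.exists_mulVec_eq_zero_iff.1
      ⟨_, hne, by rw [Matrix.sub_mulVec, hfix, Matrix.one_mulVec, sub_self]⟩
    have htr : tr h = 2 := by
      have hd := det_eq h
      rw [Matrix.det_fin_two] at hdet
      simp at hdet
      rw [tr]
      linear_combination -hdet + hd
    have h1 : h ≠ 1 := fun e => by
      rw [hh, ← map_one M.rho, M.rho.injective.eq_iff] at e
      exact hx1 (congrArg Subtype.val e)
    have := orderOf_eq_of_tr_eq_two (p := p) h1 htr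
    rw [hh, M.rho.orderOf_eq, Subgroup.orderOf_mk] at this
    rw [this] at hxp
    exact (Fact.out : p.Prime).one_lt.ne' (by simpa using hxp)
  · refine (eq_or_ne W ⊥).imp id fun hne => le_antisymm hW fun x hx => ?_
    obtain ⟨⟨w, hw⟩, hw1⟩ := Subgroup.ne_bot_iff_exists_ne_one.1 hne
    have hwV := (hW hw).1
    have hw0 := (M.mem_X_iff ⟨w, hwV⟩).1 (hW hw)
    have hwa : M.nu ⟨w, hwV⟩ 0 ≠ 0 := fun e => by
      have h' : (⟨w, hwV⟩ : V) = 1 := M.nu.injective (show M.nu ⟨w, hwV⟩ = M.nu 1 by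
        rw [M.nu_one]; ext i; fin_cases i <;> simp [e, hw0])
      exact hw1 (Subtype.ext (congrArg Subtype.val h' :))
    have hx0 := (M.mem_X_iff ⟨x, hx.1⟩).1 hx
    rcases eq_or_ne (M.nu ⟨x, hx.1⟩ 0) 0 with e | e
    · have : (⟨x, hx.1⟩ : V) = 1 := M.nu.injective (by
        rw [M.nu_one]; ext i; fin_cases i <;> simp [e, hx0])
      rw [show x = 1 from congrArg Subtype.val this]
      exact one_mem W
    · set a : Fˣ := Units.mk0 _ (div_ne_zero e hwa) with ha
      have hmem := (Subgroup.mem_normalizer_iff.1 (hinv (M.mem_normalizer_of_diag a)) w).1 hw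
      have : (⟨_, M.conj_mem (M.rho.symm (d a)) hwV⟩ : V) = ⟨x, hx.1⟩ := M.nu.injective (by
        rw [M.nu_conj (M.rho.symm (d a)) ⟨w, hwV⟩, MulEquiv.apply_symm_apply]
        ext i
        fin_cases i <;> simp [Matrix.mulVec, dotProduct, Fin.sum_univ_two, ha, hw0, hx0]
        field_simp)
      rw [show x = _ from (congrArg Subtype.val this).symm]
      exact hmem
  · refine (eq_or_ne W X).imp id fun hne => le_antisymm hWV fun x hx => ?_
    obtain ⟨w, hw, hwX⟩ := SetLike.exists_of_lt (lt_of_le_of_ne hXW hne.symm)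
    have hwV := hWV hw
    have hw0 : M.nu ⟨w, hwV⟩ 1 ≠ 0 := fun e => hwX ((M.mem_X_iff ⟨w, hwV⟩).2 e)
    rcases eq_or_ne (M.nu ⟨x, hx⟩ 1) 0 with e | e
    · exact hXW ((M.mem_X_iff ⟨x, hx⟩).2 e)
    · set a : Fˣ := Units.mk0 _ (div_ne_zero hw0 e) with ha
      have hmem := (Subgroup.mem_normalizer_iff.1 (hinv (M.mem_normalizer_of_diag a)) w).1 hw
      set w' : V := ⟨_, M.conj_mem (M.rho.symm (d a)) hwV⟩ with hw'
      have hsplit : ((⟨x, hx⟩ * w'⁻¹ : V) : G) ∈ X := by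
        rw [M.mem_X_iff, M.nu_mul, M.nu_inv, hw',
          M.nu_conj (M.rho.symm (d a)) ⟨w, hwV⟩, MulEquiv.apply_symm_apply]
        simp [Matrix.mulVec, dotProduct, Fin.sum_univ_two, ha]
        field_simp
        ring
      have := mul_mem (hXW hsplit) hmem
      rwa [show ((⟨x, hx⟩ * w'⁻¹ : V) : G) = x * (((M.rho.symm (d a) : L) : G) * w *
        ((M.rho.symm (d a) : L) : G)⁻¹)⁻¹ from rfl, inv_mul_cancel_right] at this

end NatModel

end CfsgLib.SL2
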