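import Cfsg.Agent.SL2.PSL
import Cfsg.Agent.SL2.Sylow
import Mathlib.GroupTheory.SpecificGroups.Quaternion

/-!
# A `p`-element of `SL₂(q)` normalising a `p'`-subgroup
-/

set_option autoImplicit false

open scoped Pointwise

namespace CfsgLib.SL2

variable {F : Type*} [Field F]

local notation "SL₂" F => Matrix.SpecialLinearGroup (Fin 2) F
local notation "M₂" F => Matrix (Fin 2) (Fin 2) F

/-- Conjugation by `diag(t, 1)` inside `GL₂`. -/
def twist (t : Fˣ) : (SL₂ F) ≃* SL₂ F where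
  toFun g := mk4 (g 0 0) ((t : F) * g 0 1) (((t⁻¹ : Fˣ) : F) * g 1 0) (g 1 1) (by
    have h := det_eq g
    have ht : (t : F) * ((t⁻¹ : Fˣ) : F) = 1 := Units.mul_inv t
    linear_combination h - g 0 1 * g 1 0 * ht)
  invFun g := mk4 (g 0 0) (((t⁻¹ : Fˣ) : F) * g 0 1) ((t : F) * g 1 0) (g 1 1) (by
    have h := det_eq g
    have ht : (t : F) * ((t⁻¹ : Fˣ) : F) = 1 := Units.mul_inv t
    linear_combination h - g 0 1 * g 1 0 * ht)
  left_inv g := by apply ext4 <;> simp
  right_inv g := by apply ext4 <;> simp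
  map_mul' g h := by
    apply ext4 <;> simp [Matrix.mul_apply, Fin.sum_univ_two] <;> field_simp <;> ring

lemma twist_u (t : Fˣ) (s : F) : twist t (u s) = u ((t : F) * s) := by
  apply ext4 <;> simp [twist]

lemma not_commute_of_pElt [Fintype F] {p : ℕ} [Fact p.Prime] [CharP F p] {z a : SL₂ F}
    (hz : tr z ^ 2 ≠ 4) (ha : orderOf a = p) : ¬ Commute a z := by
  intro hc
  have hmem : a ∈ Subgroup.centralizer ({z} : Set (SL₂ F)) :=
    Subgroup.mem_centralizer_singleton_iff.2 hc.eq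
  have hd : p ∣ Nat.card (Subgroup.centralizer ({z} : Set (SL₂ F))) := by
    rw [← ha, ← Subgroup.orderOf_mk a hmem]
    exact orderOf_dvd_natCard _
  obtain ⟨n, hcp, hn⟩ := FiniteField.card F p
  have hpq : p ∣ Fintype.card F := hn ▸ dvd_pow_self p n.ne_zero
  have hp := (Fact.out : p.Prime)
  have hq := one_lt_q (F := F)
  apply hp.one_lt.ne'
  apply Nat.eq_one_of_dvd_one
  by_cases hs : IsSplitTrace (tr z)
  · rw [card_centralizer_split hz hs] at hd
    have := Nat.dvd_sub hpq hd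
    rwa [Nat.sub_sub_self hq.le] at this
  · rw [card_centralizer_nonsplit hs] at hd
    have := Nat.dvd_sub hd hpq
    rwa [Nat.add_sub_cancel_left] at this

/-- A semisimple element cannot commute with its image under conjugation by an element of order `p`. -/
lemma not_commute_conj [Fintype F] {p : ℕ} [Fact p.Prime] [CharP F p] (hp : p ≠ 2) {z a : SL₂ F}
    (hz : tr z ^ 2 ≠ 4) (ha : orderOf a = p) : ¬ Commute (a * z * a⁻¹) z := by
  intro hc
  rcases eq_or_eq_inv_of_tr_eq hz (Subgroup.mem_centralizer_singleton_iff.2 hc.eq) (tr_conj z a)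
    with e | e
  · exact not_commute_of_pElt hz ha (mul_inv_eq_iff_eq_mul.1 e)
  · refine not_commute_of_pElt hz ha ?_
    have h2 : (a * a) * z * (a * a)⁻¹ = z := by
      rw [show (a * a) * z * (a * a)⁻¹ = a * (a * z * a⁻¹) * a⁻¹ by group, e,
        show a * z⁻¹ * a⁻¹ = (a * z * a⁻¹)⁻¹ by group, e, inv_inv]
    obtain ⟨j, hj⟩ : ∃ j, p + 1 = 2 * j :=
      even_iff_two_dvd.1 (((Fact.out : p.Prime).odd_of_ne_two hp).add_one)
    have : a = (a * a) ^ j := by
      rw [← pow_two, ← pow_mul, ← hj, pow_succ, ← ha, pow_orderOf_eq_one, one_mul]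
    rw [this]
    exact Commute.pow_left (mul_inv_eq_iff_eq_mul.1 h2) j

lemma tr_sq_ne_four_of_coprime [Fintype F] {p : ℕ} [Fact p.Prime] [CharP F p] (h2 : (2 : F) ≠ 0)
    {x : SL₂ F} (hx : (orderOf x).Coprime p) (hc : x ∉ Subgroup.center (SL₂ F)) :
    tr x ^ 2 ≠ 4 := by
  intro h
  have h3 := orderOf_dvd_of_pow_eq_one (pow_two_mul_char_eq_one (p := p) h)
  rcases (Nat.dvd_prime Nat.prime_two).1 (hx.dvd_of_dvd_mul_right h3) with e | e
  · exact hc (orderOf_eq_one_iff.1 e ▸ one_mem _)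
  · exact hc ((orderOf_eq_two_iff h2).1 e ▸ neg_one_mem_center)

lemma orderOf_eq_char_of_isPGroup [Fintype F] {p : ℕ} [Fact p.Prime] [CharP F p] {a : SL₂ F}
    (ha : IsPGroup p (Subgroup.zpowers a)) (h1 : a ≠ 1) : orderOf a = p := by
  obtain ⟨Q, hQ⟩ := ha.exists_le_sylow
  obtain ⟨c, hc⟩ := exists_conj_uSylow Q
  have hmem : a ∈ (Q : Subgroup (SL₂ F)) := hQ (Subgroup.mem_zpowers a)
  rw [hc] at hmem
  obtain ⟨x, hx, rfl⟩ := hmem
  obtain ⟨t, rfl⟩ := mem_U.1 hx
  have ht : t ≠ 0 := by rintro rfl; exact h1 (by rw [u_zero, map_one])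
  rw [orderOf_injective _ (MulAut.conj c).injective]
  exact orderOf_u ht

/-- The structure of a `p'`-subgroup moved by an element of order `p`. -/
theorem p_element_normalizing [Fintype F] {p : ℕ} [Fact p.Prime] [CharP F p] (hp : p ≠ 2)
    {a : SL₂ F} (ha : IsPGroup p (Subgroup.zpowers a)) {R : Subgroup (SL₂ F)}
    (hR : (Nat.card R).Coprime p) (haR : a ∈ Subgroup.normalizer (R : Set (SL₂ F)))
    (hnt : ⁅R, Subgroup.zpowers a⁆ ≠ ⊥) :
    p = 3 ∧ Nonempty (R ≃* QuaternionGroup 2) ∧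
      Nonempty (↥(R ⊔ Subgroup.zpowers a) ≃* Matrix.SpecialLinearGroup (Fin 2) (ZMod 3)) := by
  classical
  have h2 : (2 : F) ≠ 0 := fun h => hp ((Nat.prime_dvd_prime_iff_eq Fact.out Nat.prime_two).1
    ((CharP.cast_eq_zero_iff F p 2).1 (by exact_mod_cast h)))
  have ha1 : a ≠ 1 := by
    rintro rfl
    apply hnt
    rw [Subgroup.zpowers_one_eq_bot, Subgroup.commutator_bot_right]
  have hao := orderOf_eq_char_of_isPGroup ha ha1
  have hcop : ∀ x ∈ R, (orderOf x).Coprime p := fun x hx =>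
    Nat.Coprime.coprime_dvd_left (by rw [← Subgroup.orderOf_mk x hx]; exact orderOf_dvd_natCard _) hR
  have hconj : ∀ x ∈ R, a * x * a⁻¹ ∈ R := fun x hx =>
    (Subgroup.mem_normalizer_iff.1 haR x).1 hx
  have hss : ∀ x ∈ R, x ∉ Subgroup.center (SL₂ F) → tr x ^ 2 ≠ 4 := fun x hx =>
    tr_sq_ne_four_of_coprime h2 (hcop x hx)
  have hkey : ∀ x ∈ R, x ∉ Subgroup.center (SL₂ F) → ¬ Commute (a * x * a⁻¹) x := fun x hx hc =>
    not_commute_conj hp (hss x hx hc) hao
  have hnoncentral : ∃ x ∈ R, x ∉ Subgroup.center (SL₂ F) := by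
    by_contra h
    push Not at h
    apply hnt
    rw [Subgroup.commutator_eq_bot_iff_le_centralizer]
    intro x hx
    exact Subgroup.mem_centralizer_iff.2 fun y _ => Subgroup.mem_center_iff.1 (h x hx) y
  -- the action of `⟨a⟩` on `R`
  let θ : Subgroup.zpowers a →* MulAut R :=
    (Subgroup.normalizerMonoidHom R).comp (Subgroup.inclusion (Subgroup.zpowers_le.2 haR))
  letI actS : ∀ r : ℕ, MulAction (Subgroup.zpowers a) (Sylow r R) := fun r =>
    MulAction.compHom (Sylow r R) θ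
  letI actR : MulAction (Subgroup.zpowers a) R := MulAction.compHom R θ
  -- `R` is a `2`-group
  have h2grp : IsPGroup 2 R := by
    haveI : Fact (2 : ℕ).Prime := ⟨Nat.prime_two⟩
    refine IsPGroup.iff_card.2 ⟨_, Nat.eq_prime_pow_of_unique_prime_dvd Nat.card_pos.ne'
      (fun {r} hr hrd => ?_)⟩
    by_contra hr2
    haveI : Fact r.Prime := ⟨hr⟩
    have hrp : r ≠ p := fun e => (Fact.out : p.Prime).one_lt.ne'
      (Nat.eq_one_of_dvd_coprimes hR (e ▸ hrd) dvd_rfl)
    obtain ⟨S, hS⟩ := ha.nonempty_fixed_point_of_prime_not_dvd_card (α := Sylow r R) (fun hd => by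
      obtain ⟨S⟩ : Nonempty (Sylow r R) := inferInstance
      exact (Fact.out : p.Prime).one_lt.ne' (Nat.eq_one_of_dvd_coprimes hR
        ((hd.trans S.card_dvd_index).trans (Subgroup.index_dvd_card _)) dvd_rfl))
    obtain ⟨⟨z, hzR⟩, hzo⟩ :=
      exists_prime_orderOf_dvd_card' (G := (S : Subgroup R)) r
        (by simpa using S.pow_dvd_card_of_pow_dvd_card (n := 1) (by simpa using hrd))
    rw [Subgroup.orderOf_mk] at hzo
    have hzo' : orderOf (z : SL₂ F) = r := by rw [Subgroup.orderOf_coe]; exact hzo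
    obtain ⟨Q, hQ⟩ := (S.isPGroup'.map R.subtype).exists_le_sylow
    haveI := isCyclic_sylow_odd (p := p) hr2 hrp Q
    have hS' : a * (z : SL₂ F) * a⁻¹ ∈ (S : Subgroup R).map R.subtype := by
      refine ⟨θ ⟨a, Subgroup.mem_zpowers a⟩ z, ?_, ?_⟩
      · have h' := congrArg (fun T : Sylow r R => (T : Subgroup R)) (hS ⟨a, Subgroup.mem_zpowers a⟩)
        change θ ⟨a, Subgroup.mem_zpowers a⟩ z ∈ (S : Subgroup R)
        rw [← h']
        exact ⟨z, hzR, rfl⟩
      · rfl
    let _ := IsCyclic.commGroup (α := (Q : Subgroup (SL₂ F)))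
    have hc : Commute (a * (z : SL₂ F) * a⁻¹) z := congrArg Subtype.val
      (mul_comm (⟨_, hQ hS'⟩ : (Q : Subgroup (SL₂ F))) ⟨_, hQ ⟨z, hzR, rfl⟩⟩)
    exact not_commute_conj hp (tr_sq_ne_four_of_orderOf (p := p) hr hr2 hrp hzo') hao hc
  -- `R` is quaternion of order eight
  have hstr := CfsgLib.TwoGroup.cyclic_or_quaternion h2grp ((atMostOneInvolution h2).subgroup R)
  obtain ⟨k, hk, ⟨e⟩⟩ := hstr.resolve_left (fun hc => by
    haveI := hc
    let _ := IsCyclic.commGroup (α := R)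
    obtain ⟨x, hx, hxc⟩ := hnoncentral
    exact hkey x hx hxc (congrArg Subtype.val (mul_comm (⟨_, hconj x hx⟩ : R) ⟨x, hx⟩)))
  have hsqcomm : ∀ x y : R, Commute (x * x) (y * y) := by
    intro x y
    apply e.injective
    simp only [map_mul]
    rcases e x with i | i <;> rcases e y with j | j <;>
      simp only [QuaternionGroup.a_mul_a, QuaternionGroup.xa_mul_xa] <;> congr 1 <;> ring
  have hsq : ∀ x ∈ R, x * x ∈ Subgroup.center (SL₂ F) := by
    intro x hx
    by_contra hc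
    refine hkey _ (mul_mem hx hx) hc ?_
    rw [show a * (x * x) * a⁻¹ = (a * x * a⁻¹) * (a * x * a⁻¹) by group]
    exact congrArg Subtype.val (hsqcomm ⟨_, hconj x hx⟩ ⟨x, hx⟩).eq
  have htr : ∀ x ∈ R, x ∉ Subgroup.center (SL₂ F) → tr x = 0 := by
    intro x hx hc
    rw [← mul_self_eq_neg_one_iff]
    refine (mem_center_iff'.1 (hsq x hx)).resolve_left fun h1 => hc ?_
    rcases eq_or_ne x 1 with rfl | hne
    · exact one_mem _
    · rw [eq_neg_one_of_mul_self h2 hne h1]; exact neg_one_mem_center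
  haveI : NeZero (2 ^ k) := ⟨by positivity⟩
  have hk1 : k = 1 := by
    have ho : orderOf ((e.symm (QuaternionGroup.a 1) : R) : SL₂ F) = 2 * 2 ^ k := by
      rw [Subgroup.orderOf_coe, MulEquiv.orderOf_eq, QuaternionGroup.orderOf_a_one]
    have h4 : ((e.symm (QuaternionGroup.a 1) : R) : SL₂ F) ^ 4 = 1 := by
      have hz := hsq _ (e.symm (QuaternionGroup.a 1)).2
      rw [show (4 : ℕ) = 2 * 2 from rfl, pow_mul, pow_two ((e.symm (QuaternionGroup.a 1) : R) : SL₂ F),
        pow_two]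
      rcases mem_center_iff'.1 hz with h | h <;> rw [h] <;> simp
    have hle := Nat.le_of_dvd (by norm_num) (ho ▸ orderOf_dvd_of_pow_eq_one h4)
    have h2k : 2 ^ k ≤ 2 ^ 1 := by omega
    have := (Nat.pow_le_pow_iff_right (by norm_num)).1 h2k
    omega
  subst hk1
  have hR8 : Nat.card R = 8 := by
    rw [Nat.card_congr e.toEquiv, Nat.card_eq_fintype_card, QuaternionGroup.card]; rfl
  -- `p = 3`
  have hp3 : p = 3 := by
    have hmod := ha.card_modEq_card_fixedPoints R
    have hfix : Nat.card (MulAction.fixedPoints (Subgroup.zpowers a) R) = 2 := by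
      obtain ⟨x₀, hx₀, hx₀c⟩ := hnoncentral
      have hm1 : (-1 : SL₂ F) ∈ R := by
        have := (mem_center_iff'.1 (hsq x₀ hx₀)).resolve_left fun h1 => hx₀c (by
          rcases eq_or_ne x₀ 1 with rfl | hne
          · exact one_mem _
          · rw [eq_neg_one_of_mul_self h2 hne h1]; exact neg_one_mem_center)
        rw [← this]; exact mul_mem hx₀ hx₀
      rw [Nat.card_eq_two_iff' (⟨1, fun g => map_one (θ g)⟩ :
        MulAction.fixedPoints (Subgroup.zpowers a) R)]
      refine ⟨⟨⟨-1, hm1⟩, fun g => Subtype.ext ?_⟩, ?_, ?_⟩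
      · show (g : SL₂ F) * (-1) * (g : SL₂ F)⁻¹ = -1
        rw [Subgroup.mem_center_iff.1 neg_one_mem_center, mul_inv_cancel_right]
      · intro h
        exact neg_one_ne_one h2 (congrArg (fun z => ((Subtype.val z : R) : SL₂ F)) h)
      · rintro ⟨⟨x, hx⟩, hxf⟩ hne
        have hfx : a * x * a⁻¹ = x := congrArg Subtype.val (hxf ⟨a, Subgroup.mem_zpowers a⟩)
        by_cases hc : x ∈ Subgroup.center (SL₂ F)
        · rcases mem_center_iff'.1 hc with rfl | rfl
          · exact absurd rfl hne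
          · rfl
        · exact absurd (by rw [hfx]) (hkey x hx hc)
    rw [hR8, hfix] at hmod
    have h6 : p ∣ 6 := (Nat.modEq_iff_dvd' (show 2 ≤ 8 by norm_num)).1 hmod.symm
    have hmem : p ∈ Nat.divisors 6 := Nat.mem_divisors.2 ⟨h6, by norm_num⟩
    rw [show Nat.divisors 6 = {1, 2, 3, 6} by decide] at hmem
    simp only [Finset.mem_insert, Finset.mem_singleton] at hmem
    have hpp := (Fact.out : p.Prime)
    rcases hmem with rfl | rfl | rfl | rfl
    · exact absurd hpp (by norm_num)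
    · exact absurd rfl hp
    · rfl
    · exact absurd hpp (by norm_num)
  subst hp3
  refine ⟨rfl, ⟨e⟩, ?_⟩
  -- coordinates
  obtain ⟨Q, hQ⟩ := ha.exists_le_sylow
  obtain ⟨c, hc⟩ := exists_conj_uSylow Q
  have hmem : a ∈ (Q : Subgroup (SL₂ F)) := hQ (Subgroup.mem_zpowers a)
  rw [hc] at hmem
  obtain ⟨x, hx, hxa⟩ := hmem
  obtain ⟨t, rfl⟩ := mem_U.1 hx
  have ht : t ≠ 0 := by rintro rfl; exact ha1 (by rw [← hxa, u_zero, map_one])
  let κ : (SL₂ F) ≃* SL₂ F := (twist (Units.mk0 t ht)).trans (MulAut.conj c)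
  have hκu : κ (u 1) = a := by
    rw [← hxa]
    show (MulAut.conj c) (twist (Units.mk0 t ht) (u 1)) = _
    rw [twist_u, Units.val_mk0, mul_one]
    rfl
  obtain ⟨i, hiR, hic⟩ := hnoncentral
  set i₀ := κ.symm i with hi₀
  have hj : a * i * a⁻¹ ∈ R := hconj i hiR
  have hij : tr (i * (a * i * a⁻¹)) = 0 := by
    refine htr _ (mul_mem hiR hj) fun hcen => hkey i hiR hic ?_
    show (a * i * a⁻¹) * i = i * (a * i * a⁻¹)
    calc (a * i * a⁻¹) * i = i⁻¹ * (i * (a * i * a⁻¹)) * i := by group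
      _ = i * (a * i * a⁻¹) := by
        rw [mul_assoc, ← Subgroup.mem_center_iff.1 hcen i, inv_mul_cancel_left]
  have htrκ : ∀ g, tr (κ g) = tr g := fun g => by
    show tr (c * twist (Units.mk0 t ht) g * c⁻¹) = _
    rw [tr_conj]
    simp [tr, twist]
  have hi0t : tr i₀ = 0 := by
    rw [← htrκ, hi₀, MulEquiv.apply_symm_apply]; exact htr i hiR hic
  have hz2 : i₀ 1 0 * i₀ 1 0 = 1 := by
    have h0 : tr (i₀ * (u 1 * i₀ * (u 1)⁻¹)) = 0 := by
      rw [← htrκ, map_mul, map_mul, map_mul, map_inv, hκu, hi₀, MulEquiv.apply_symm_apply]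
      exact hij
    have hd := det_eq i₀
    have h11 : i₀ 1 1 = -i₀ 0 0 := by rw [tr] at hi0t; linear_combination hi0t
    rw [← u_neg] at h0
    simp [tr, Matrix.mul_apply, Matrix.vecMul, dotProduct, Fin.sum_univ_two] at h0
    rw [h11] at h0 hd
    have h3 : (3 : F) = 0 := by exact_mod_cast (CharP.cast_eq_zero F 3)
    linear_combination -h0 - 2 * hd - h3
  let ι3 : Matrix.SpecialLinearGroup (Fin 2) (ZMod 3) →* SL₂ F :=
    Matrix.SpecialLinearGroup.map (ZMod.castHom (dvd_refl 3) F)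
  have hι : Function.Injective ι3 := fun g h e => by
    refine Subtype.ext (Matrix.ext fun r s => (ZMod.castHom (dvd_refl 3) F).injective ?_)
    have := congrArg (fun m : SL₂ F => m r s) e
    simpa [ι3] using this
  set s : F := i₀ 0 0 * i₀ 1 0 with hs
  let Ψ : Matrix.SpecialLinearGroup (Fin 2) (ZMod 3) →* SL₂ F :=
    (κ.toMonoidHom.comp (MulAut.conj (u s)).toMonoidHom).comp ι3
  have hΨinj : Function.Injective Ψ :=
    κ.injective.comp ((MulAut.conj (u s)).injective.comp hι)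
  have hΨu : Ψ (u 1) = a := by
    rw [← hκu]
    show κ (u s * ι3 (u 1) * (u s)⁻¹) = κ (u 1)
    have : ι3 (u 1) = u 1 := by apply ext4 <;> simp [ι3]
    rw [this, ← u_add, ← u_neg, ← u_add]
    congr 2
    ring
  have hΨw : Ψ w = i ∨ Ψ w = i⁻¹ := by
    have hw : ι3 w = w := by apply ext4 <;> simp [ι3]
    have e0 : Ψ w = κ (u s * w * (u s)⁻¹) := by rw [← hw]; rfl
    have hinv : i⁻¹ = κ (i₀⁻¹) := by rw [map_inv, hi₀, MulEquiv.apply_symm_apply]
    rcases mul_self_eq_one_iff.1 hz2 with hz | hz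
    · right
      rw [e0, hinv, inv_of_tr_zero hi0t]
      congr 1
      have hd := det_eq i₀
      have h11 : i₀ 1 1 = -i₀ 0 0 := by rw [tr] at hi0t; linear_combination hi0t
      rw [h11, hz] at hd
      apply ext4 <;>
        simp [Matrix.mul_apply, Matrix.vecMul, dotProduct, Fin.sum_univ_two, ← u_neg,
          h11, hs, hz]
      linear_combination -hd
    · left
      rw [e0, show i = κ i₀ from (κ.apply_symm_apply i).symm]
      congr 1
      have hd := det_eq i₀
      have h11 : i₀ 1 1 = -i₀ 0 0 := by rw [tr] at hi0t; linear_combination hi0t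
      rw [h11, hz] at hd
      apply ext4 <;>
        simp [Matrix.mul_apply, Matrix.vecMul, dotProduct, Fin.sum_univ_two, ← u_neg, h11, hs, hz]
      linear_combination -hd
  have hle : Ψ.range ≤ R ⊔ Subgroup.zpowers a := by
    rw [MonoidHom.range_eq_map, ← U_sup_zpowers_eq_top (g := (w : Matrix.SpecialLinearGroup (Fin 2) (ZMod 3)))
      (by simp), Subgroup.map_sup, MonoidHom.map_zpowers]
    refine sup_le ?_ (Subgroup.zpowers_le.2 ?_)
    · rintro _ ⟨g, hg, rfl⟩
      obtain ⟨t', rfl⟩ := mem_U.1 hg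
      have : u t' = (u 1 : Matrix.SpecialLinearGroup (Fin 2) (ZMod 3)) ^ t'.val := by
        rw [u_pow, mul_one, ZMod.natCast_zmod_val]
      rw [this, map_pow, hΨu]
      exact pow_mem (Subgroup.mem_sup_right (Subgroup.mem_zpowers a)) _
    · rcases hΨw with h | h <;> rw [h]
      exacts [Subgroup.mem_sup_left hiR, Subgroup.mem_sup_left (inv_mem hiR)]
  have hcard : Nat.card ↥(R ⊔ Subgroup.zpowers a) ≤ 24 := by
    have hsup : ((R ⊔ Subgroup.zpowers a : Subgroup (SL₂ F)) : Set (SL₂ F)) =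
        (R : Set (SL₂ F)) * (Subgroup.zpowers a : Set (SL₂ F)) :=
      Subgroup.coe_mul_of_right_le_normalizer_left R (Subgroup.zpowers a) (Subgroup.zpowers_le.2 haR)
    calc Nat.card ↥(R ⊔ Subgroup.zpowers a)
        ≤ Nat.card (R × Subgroup.zpowers a) := by
          refine Nat.card_le_card_of_surjective (fun x => ⟨(x.1 : SL₂ F) * x.2,
            mul_mem (Subgroup.mem_sup_left x.1.2) (Subgroup.mem_sup_right x.2.2)⟩) ?_
          rintro ⟨y, hy⟩
          have : y ∈ ((R ⊔ Subgroup.zpowers a : Subgroup (SL₂ F)) : Set (SL₂ F)) := hy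
          rw [hsup] at this
          obtain ⟨r, hr, q, hq, rfl⟩ := this
          exact ⟨(⟨r, hr⟩, ⟨q, hq⟩), rfl⟩
      _ = 24 := by rw [Nat.card_prod, hR8, Nat.card_zpowers, hao]
  have hrange : Ψ.range = R ⊔ Subgroup.zpowers a := by
    refine Subgroup.eq_of_le_of_card_ge hle (hcard.trans ?_)
    rw [← Nat.card_congr (MonoidHom.ofInjective hΨinj).toEquiv, card_SL, ZMod.card]
    norm_num
  exact ⟨((MonoidHom.ofInjective hΨinj).trans (MulEquiv.subgroupCongr hrange)).symm⟩

end CfsgLib.SL2
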